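import Mathlib
import Cfsg.Prelude.Def_JComponents

set_option autoImplicit false

/-!
# KS12 / S2945: statements of the two packages behind "Lemma X" (helper77)

Lemma X: if `K` is subnormal in `K ⊔ J`, generated by elements of odd order, `|K : O_2(K)| = 3`,
`W_K` a four-group, then every elementary abelian 2-subgroup `A ≤ J` of largest order in `K ⊔ J`
normalizes `W_K`.  Its proof uses the two self-contained statements below.
-/

namespace Cfsg.Agent.Lib.Helper77.KS12

universe u

/-- `[V, α]` for an automorphism `α` of a commutative group `V`: the subgroup of all `α v * v⁻¹`. -/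
def commRange {V : Type*} [CommGroup V] (α : MulAut V) : Subgroup V :=
  (α.toMonoidHom / MonoidHom.id V).range

theorem mem_commRange {V : Type*} [CommGroup V] {α : MulAut V} {x : V} :
    x ∈ commRange α ↔ ∃ v : V, α v * v⁻¹ = x := by
  unfold commRange
  rw [MonoidHom.mem_range]
  simp [div_eq_mul_inv]

/-- PACKAGE T (3-group lemma).  `V` a commutative group of exponent 2, `E` a finite 3-group acting
on `V`.  If `[V, a]` and `[V, b]` both have order 4 then they are equal or `b` centralizes `[V, a]`. -/
def LemT : Prop :=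
  ∀ {V : Type u} [CommGroup V] (_ : ∀ v : V, v * v = 1) {E : Type u} [Group E] [Finite E]
    (_ : IsPGroup 3 E) (φ : E →* MulAut V) (a b : E),
    Nat.card (commRange (φ a)) = 4 → Nat.card (commRange (φ b)) = 4 →
    commRange (φ a) = commRange (φ b) ∨ ∀ w ∈ commRange (φ a), φ b w = w

/-- PACKAGE C (counting).  `A`, `V` elementary abelian 2-subgroups, `A` normalizes `V`, `W ≤ V` of
order 4, `d` acts fixed-point-freely on `W`, and for `a ∈ A` not normalizing `W` the conjugate
`a d a⁻¹` centralizes `W`.  If no elementary abelian 2-subgroup of `A V` is larger than `A`, then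
`A` normalizes `W`. -/
def LemCount : Prop :=
  ∀ {G : Type u} [Group G] [Finite G] (A V W : Subgroup G) (d : G),
    Cfsg.IsElementaryAbelian 2 A → Cfsg.IsElementaryAbelian 2 V →
    A ≤ Subgroup.normalizer (V : Set G) → W ≤ V → Nat.card W = 4 →
    (∀ w ∈ W, d * w = w * d → w = 1) →
    (∀ a ∈ A, a ∉ Subgroup.normalizer (W : Set G) →
      ∀ w ∈ W, (a * d * a⁻¹) * w = w * (a * d * a⁻¹)) →
    (∀ B : Subgroup G, B ≤ A ⊔ V → Cfsg.IsElementaryAbelian 2 B → Nat.card B ≤ Nat.card A) →
    A ≤ Subgroup.normalizer (W : Set G)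

end Cfsg.Agent.Lib.Helper77.KS12
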