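import Mathlib
import Cfsg.Agent.Lib.Helper77.KS12.LemXDefs
import Cfsg.Agent.Lib.Helper86.KS12.Count

set_option autoImplicit false

/-!
# KS12 / S2945: the counting package `LemCount` from helper86's `count` (helper77)

The family of `A`-conjugates of `W` is independent (the conjugate `a d a⁻¹` centralizes all the
other conjugates and is fixed-point-free on `a W a⁻¹`), so helper86's counting lemma applies.
-/

namespace Cfsg.Agent.Lib.Helper77.KS12

universe u

theorem lemCount : LemCount.{u} := by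
  intro G _ _ A V W d hA hV hAV hWV hW4 hfp hT hmax
  classical
  have hVc : ∀ x ∈ V, ∀ y ∈ V, x * y = y * x := by
    intro x hx y hy
    have := hV.1
    exact setLike_mul_comm hx hy
  have hAc : ∀ x ∈ A, ∀ y ∈ A, x * y = y * x := by
    intro x hx y hy
    have := hA.1
    exact setLike_mul_comm hx hy
  have hV2 : ∀ v ∈ V, v * v = 1 := fun v hv => by
    have h := hV.2 v hv
    rwa [pow_two] at h
  have hA2 : ∀ a ∈ A, a * a = 1 := fun a ha => by
    have h := hA.2 a ha
    rwa [pow_two] at h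
  -- conjugates of `W` lie in `V`
  have hconjV : ∀ a ∈ A, W.map (MulAut.conj a).toMonoidHom ≤ V := by
    rintro a ha _ ⟨w, hw, rfl⟩
    exact (Subgroup.mem_normalizer_iff.mp (hAV ha) w).mp (hWV hw)
  -- the index type
  let ι : Type u := {H : Subgroup G // ∃ a ∈ A, H = W.map (MulAut.conj a).toMonoidHom}
  let Wf : ι → Subgroup G := fun i => i.1
  have hWfV : ∀ i : ι, Wf i ≤ V := by
    rintro ⟨H, a, ha, rfl⟩
    exact hconjV a ha
  have hW4' : ∀ i : ι, Nat.card ↥(Wf i) = 4 := by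
    rintro ⟨H, a, ha, rfl⟩
    show Nat.card ↥(W.map (MulAut.conj a).toMonoidHom) = 4
    rw [Subgroup.card_map_of_injective (MulAut.conj a).injective]; exact hW4
  have hW2' : ∀ i : ι, ∀ w ∈ Wf i, w * w = 1 := fun i w hw => hV2 w (hWfV i hw)
  have hcomm' : ∀ i j : ι, i ≠ j → ∀ a ∈ Wf i, ∀ b ∈ Wf j, a * b = b * a :=
    fun i j _ a ha b hb => hVc a (hWfV i ha) b (hWfV j hb)
  -- the conjugate of `d` attached to `a` centralizes the other conjugates
  have hcent : ∀ a ∈ A, ∀ a' ∈ A,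
      W.map (MulAut.conj a').toMonoidHom ≠ W.map (MulAut.conj a).toMonoidHom →
      ∀ x ∈ W.map (MulAut.conj a').toMonoidHom, (a * d * a⁻¹) * x = x * (a * d * a⁻¹) := by
    intro a ha a' ha' hne x hx
    obtain ⟨w, hw, rfl⟩ := hx
    have hc : a'⁻¹ * a ∈ A := A.mul_mem (A.inv_mem ha') ha
    have hcn : a'⁻¹ * a ∉ Subgroup.normalizer (W : Set G) := by
      intro hn
      apply hne
      have h1 := Cfsg.Agent.Lib.Helper86.KS12.map_conj_eq_of_mem_normalizer hn
      have e : W.map (MulAut.conj a).toMonoidHom =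
          (W.map (MulAut.conj (a'⁻¹ * a)).toMonoidHom).map (MulAut.conj a').toMonoidHom := by
        rw [Subgroup.map_map]
        congr 1
        ext x
        show a * x * a⁻¹ = a' * ((a'⁻¹ * a) * x * (a'⁻¹ * a)⁻¹) * a'⁻¹
        group
      rw [e, h1]
    have h2 := hT _ hc hcn w hw
    show (a * d * a⁻¹) * (a' * w * a'⁻¹) = (a' * w * a'⁻¹) * (a * d * a⁻¹)
    calc (a * d * a⁻¹) * (a' * w * a'⁻¹)
        = a' * (((a'⁻¹ * a) * d * (a'⁻¹ * a)⁻¹) * w) * a'⁻¹ := by group
      _ = a' * (w * ((a'⁻¹ * a) * d * (a'⁻¹ * a)⁻¹)) * a'⁻¹ := by rw [h2]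
      _ = (a' * w * a'⁻¹) * (a * d * a⁻¹) := by group
  have hind : iSupIndep Wf := by
    rintro ⟨H, a, ha, rfl⟩
    rw [Subgroup.disjoint_def]
    intro x hx1 hx2
    have hle : (⨆ (j : ι) (_ : j ≠ ⟨W.map (MulAut.conj a).toMonoidHom, a, ha, rfl⟩), Wf j) ≤
        Subgroup.centralizer ({a * d * a⁻¹} : Set G) := by
      refine iSup₂_le ?_
      rintro ⟨H', a', ha', rfl⟩ hj y hy
      rw [Subgroup.mem_centralizer_iff]
      intro z hz
      rw [Set.mem_singleton_iff] at hz
      subst hz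
      refine hcent a ha a' ha' ?_ y hy
      intro h
      apply hj
      exact Subtype.ext h
    have hx3 := Subgroup.mem_centralizer_iff.mp (hle hx2) (a * d * a⁻¹) rfl
    obtain ⟨w, hw, rfl⟩ := hx1
    have hx4 : (a * d * a⁻¹) * (a * w * a⁻¹) = (a * w * a⁻¹) * (a * d * a⁻¹) := hx3
    have hdw : d * w = w * d := by
      have e1 : d * w = a⁻¹ * ((a * d * a⁻¹) * (a * w * a⁻¹)) * a := by group
      rw [e1, hx4]; group
    have hw1 := hfp w hw hdw
    show a * w * a⁻¹ = 1
    rw [hw1]; group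
  have hperm : ∀ a ∈ A, ∀ i : ι, ∃ j : ι, (Wf i).map (MulAut.conj a).toMonoidHom = Wf j := by
    rintro a ha ⟨H, a', ha', rfl⟩
    refine ⟨⟨W.map (MulAut.conj (a * a')).toMonoidHom, a * a', A.mul_mem ha ha', rfl⟩, ?_⟩
    show (W.map (MulAut.conj a').toMonoidHom).map (MulAut.conj a).toMonoidHom =
      W.map (MulAut.conj (a * a')).toMonoidHom
    rw [Subgroup.map_map]
    congr 1
    ext x
    show a * (a' * x * a'⁻¹) * a⁻¹ = (a * a') * x * (a * a')⁻¹
    group
  have hmax' : ∀ B : Subgroup G, B ≤ A ⊔ V → (∀ b ∈ B, b * b = 1) →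
      (∀ a ∈ B, ∀ b ∈ B, a * b = b * a) → Nat.card ↥B ≤ Nat.card ↥A := by
    intro B hB hB2 hBc
    refine hmax B hB ⟨IsMulCommutative.of_setLike_mul_comm hBc, fun b hb => ?_⟩
    rw [pow_two]; exact hB2 b hb
  have key := Cfsg.Agent.Lib.Helper86.KS12.count Wf hW4' hW2' hcomm' hind (A ⊔ V) A
    (fun i => (hWfV i).trans le_sup_right) le_sup_left hA2 hAc hmax' hperm
  intro a ha
  have hW0 : ∃ a ∈ A, W = W.map (MulAut.conj a).toMonoidHom := by
    refine ⟨1, A.one_mem, ?_⟩
    ext x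
    constructor
    · intro hx
      exact ⟨x, hx, by show (1 : G) * x * (1 : G)⁻¹ = x; group⟩
    · rintro ⟨y, hy, rfl⟩
      have e : (MulAut.conj (1 : G)).toMonoidHom y = y := by
        show (1 : G) * y * (1 : G)⁻¹ = y
        group
      rw [e]; exact hy
  have h1 := key a ha ⟨W, hW0⟩
  exact Subgroup.mem_normalizer_iff_map_conj_eq.mpr h1

end Cfsg.Agent.Lib.Helper77.KS12
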