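import Mathlib
import Cfsg.Agent.Lib.Helper77.KS12.LemXDefs
import Cfsg.Agent.Lib.Helper71.JC.JCInst

set_option autoImplicit false
set_option linter.unusedSectionVars false
set_option linter.style.haveILetI false

/-!
# KS12 / S2945, Lemma X: the group-theoretic half (helper77)

`K` subnormal in `Y`, generated by elements of odd order, `|K : O_2(K)| = 3`, `W_K` a four-group.
Then `O_2(Y)` centralizes `W_K`, `W_K ≤ V := Ω₁(Z(O_2(Y)))` and `[V, d] = W_K` for `d ∈ K ∖ O_2(K)`.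
-/

namespace Cfsg.Agent.Lib.Helper77.KS12

open Cfsg.Agent.Lib.Helper71.JC
open scoped commutatorElement

universe u
variable {G : Type u} [Group G]

/-- The hypotheses of Lemma X on the pair `K ≤ Y`. -/
structure XCfg (K Y : Subgroup G) : Prop where
  hKY : K ≤ Y
  hodd : Subgroup.closure {g : G | g ∈ K ∧ Odd (orderOf g)} = K
  hidx : (Cfsg.pCoreOf 2 K).relIndex K = 3
  hW4 : Nat.card ↥(Cfsg.wOf K) = 4
  hW2 : ∀ w ∈ Cfsg.wOf K, w * w = 1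
  hsn : (K.subgroupOf Y).IsSubnormal

namespace XCfg

variable {K Y : Subgroup G} (c : XCfg K Y)
include c

theorem Q_le_K : Cfsg.pCoreOf 2 K ≤ K := Cfsg.Agent.Lib.Helper47.pCoreOf_le 2 K

theorem K_norm_Q : K ≤ Subgroup.normalizer ((Cfsg.pCoreOf 2 K : Subgroup G) : Set G) :=
  Cfsg.Agent.Lib.Helper47.le_normalizer_pCoreOf 2 K

theorem Y_norm_R : Y ≤ Subgroup.normalizer ((Cfsg.pCoreOf 2 Y : Subgroup G) : Set G) :=
  Cfsg.Agent.Lib.Helper47.le_normalizer_pCoreOf 2 Y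

theorem R_le_Y : Cfsg.pCoreOf 2 Y ≤ Y := Cfsg.Agent.Lib.Helper47.pCoreOf_le 2 Y

theorem R_pgroup : IsPGroup 2 (Cfsg.pCoreOf 2 Y) :=
  haveI : Fact (Nat.Prime 2) := ⟨Nat.prime_two⟩
  Cfsg.Agent.Lib.Helper47.pCoreOf_isPGroup 2 Y

/-- `O_2(K) ≤ O_2(Y)`. -/
theorem Q_le_R : Cfsg.pCoreOf 2 K ≤ Cfsg.pCoreOf 2 Y := by
  haveI : Fact (Nat.Prime 2) := ⟨Nat.prime_two⟩
  have hQK := c.Q_le_K
  have hKQ := c.K_norm_Q
  have hle : (Cfsg.pCoreOf 2 K).subgroupOf Y ≤ K.subgroupOf Y := by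
    intro x hx
    exact Subgroup.mem_subgroupOf.mpr (hQK (Subgroup.mem_subgroupOf.mp hx))
  have hN : (((Cfsg.pCoreOf 2 K).subgroupOf Y).subgroupOf (K.subgroupOf Y)).Normal := by
    rw [Subgroup.normal_subgroupOf_iff_le_normalizer hle]
    intro x hx
    rw [Subgroup.mem_normalizer_iff]
    intro y
    have h := Subgroup.mem_normalizer_iff.mp (hKQ (Subgroup.mem_subgroupOf.mp hx)) (y : G)
    rw [Subgroup.mem_subgroupOf, Subgroup.mem_subgroupOf]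
    simpa using h
  have hsub : ((Cfsg.pCoreOf 2 K).subgroupOf Y).IsSubnormal :=
    Subgroup.IsSubnormal.step _ _ hle c.hsn hN
  have hp : IsPGroup 2 ((Cfsg.pCoreOf 2 K).subgroupOf Y) :=
    (Cfsg.Agent.Lib.Helper47.pCoreOf_isPGroup 2 K).comap_of_injective Y.subtype
      Y.subtype_injective
  have h1 := Cfsg.Agent.Lib.Helper47.le_pCore_of_isSubnormal_of_isPGroup hsub hp
  intro q hq
  exact ⟨⟨q, c.hKY (hQK hq)⟩, h1 (Subgroup.mem_subgroupOf.mpr hq), rfl⟩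

/-- `O_2(Y)` normalizes `K`. -/
theorem R_norm_K : Cfsg.pCoreOf 2 Y ≤ Subgroup.normalizer (K : Set G) := by
  haveI : Fact (Nat.Prime 2) := ⟨Nat.prime_two⟩
  have h1 := Cfsg.Agent.Lib.Helper47.pCore_le_normalizer_pResidual_map (p := 2) c.hsn
  have h2 : (Cfsg.pResidual 2 ↥(K.subgroupOf Y)).map (K.subgroupOf Y).subtype =
      K.subgroupOf Y := by
    rw [Cfsg.Agent.Lib.Helper47.pResidual_map_subtype_eq]
    apply le_antisymm
    · rw [Subgroup.closure_le]; intro x hx; exact hx.1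
    · intro x hx
      have hx' : (x : G) ∈ K := Subgroup.mem_subgroupOf.mp hx
      have hsub : Subgroup.closure {g : G | g ∈ K ∧ Odd (orderOf g)} ≤
          (Subgroup.closure {x : ↥Y | x ∈ K.subgroupOf Y ∧ (orderOf x).Coprime 2}).map
            Y.subtype := by
        rw [MonoidHom.map_closure]
        apply Subgroup.closure_mono
        rintro g ⟨hgK, hg⟩
        refine ⟨⟨g, c.hKY hgK⟩, ⟨Subgroup.mem_subgroupOf.mpr hgK, ?_⟩, rfl⟩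
        rw [Subgroup.orderOf_mk]
        exact Nat.coprime_two_right.mpr hg
      rw [← c.hodd] at hx'
      obtain ⟨y, hy, hyx⟩ := hsub hx'
      have hyx' : y = x := Subtype.ext hyx
      rw [← hyx']; exact hy
  rw [h2] at h1
  apply Cfsg.Agent.Lib.Helper53.le_normalizer_of_conj_mem
  rintro r ⟨r', hr', rfl⟩ k hk
  have h3 := (Subgroup.mem_normalizer_iff.mp (h1 hr') ⟨k, c.hKY hk⟩).mp
    (Subgroup.mem_subgroupOf.mpr hk)
  exact Subgroup.mem_subgroupOf.mp h3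

/-- `K ∩ O_2(Y) ≤ O_2(K)`. -/
theorem inf_le_Q : K ⊓ Cfsg.pCoreOf 2 Y ≤ Cfsg.pCoreOf 2 K := by
  apply Cfsg.Agent.Lib.Helper47.le_pCoreOf_of_le_normalizer (c.R_pgroup.to_le inf_le_right)
    inf_le_left
  intro k hk
  have h1 : k ∈ Subgroup.normalizer (K : Set G) := Subgroup.le_normalizer hk
  have h2 := c.Y_norm_R (c.hKY hk)
  rw [Subgroup.mem_normalizer_iff] at h1 h2 ⊢
  intro x
  rw [Subgroup.mem_inf, Subgroup.mem_inf, ← h1 x, ← h2 x]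

/-- `[O_2(Y), K] ≤ O_2(K)`. -/
theorem comm_mem_Q {r k : G} (hr : r ∈ Cfsg.pCoreOf 2 Y) (hk : k ∈ K) :
    r * k * r⁻¹ * k⁻¹ ∈ Cfsg.pCoreOf 2 K := by
  apply c.inf_le_Q
  refine Subgroup.mem_inf.mpr ⟨?_, ?_⟩
  · exact K.mul_mem (conj_mem_of_mem_normalizer (c.R_norm_K hr) hk) (K.inv_mem hk)
  · have h := conj_mem_of_mem_normalizer (c.Y_norm_R (c.hKY hk)) (Subgroup.inv_mem _ hr)
    have e : r * k * r⁻¹ * k⁻¹ = r * (k * r⁻¹ * k⁻¹) := by group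
    rw [e]; exact Subgroup.mul_mem _ hr h

/-- `O_2(Y)` normalizes `O_2(K)`. -/
theorem R_norm_Q : Cfsg.pCoreOf 2 Y ≤
    Subgroup.normalizer ((Cfsg.pCoreOf 2 K : Subgroup G) : Set G) :=
  haveI : Fact (Nat.Prime 2) := ⟨Nat.prime_two⟩
  c.R_norm_K.trans (Cfsg.Agent.Lib.Helper47.normalizer_le_normalizer_pCoreOf 2 K)

theorem exists_d : ∃ d ∈ K, d ∉ Cfsg.pCoreOf 2 K ∧ Odd (orderOf d) := by
  by_contra hcon
  push Not at hcon
  have h1 : Subgroup.closure {g : G | g ∈ K ∧ Odd (orderOf g)} ≤ Cfsg.pCoreOf 2 K := by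
    rw [Subgroup.closure_le]
    rintro g ⟨hgK, hg⟩
    by_contra hgQ
    exact hcon g hgK hgQ hg
  rw [c.hodd] at h1
  have h2 : (Cfsg.pCoreOf 2 K).relIndex K = 1 := Subgroup.relIndex_eq_one.mpr h1
  have h3 := c.hidx
  omega

/-- `W_K ≤ Ω₁(Z(O_2(K)))`. -/
theorem W_le_U : Cfsg.wOf K ≤ Cfsg.omegaCenterOf (Cfsg.pCoreOf 2 K) := by
  unfold Cfsg.wOf
  rw [Subgroup.commutator_le]
  intro u hu k hk
  rw [commutatorElement_def]
  have h1 := conj_mem_omegaCenterOf (c.K_norm_Q hk) (Subgroup.inv_mem _ hu)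
  have e : u * k * u⁻¹ * k⁻¹ = u * (k * u⁻¹ * k⁻¹) := by group
  rw [e]; exact Subgroup.mul_mem _ hu h1

theorem W_le_Q : Cfsg.wOf K ≤ Cfsg.pCoreOf 2 K :=
  fun _ hw => (mem_omegaCenterOf_iff.mp (c.W_le_U hw)).1

/-- `K` normalizes `W_K`. -/
theorem K_norm_W {k w : G} (hk : k ∈ K) (hw : w ∈ Cfsg.wOf K) : k * w * k⁻¹ ∈ Cfsg.wOf K := by
  unfold Cfsg.wOf at hw ⊢
  exact comm_conj_mem (fun v hv => conj_mem_omegaCenterOf (c.K_norm_Q hk) hv)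
    (fun k' hk' => K.mul_mem (K.mul_mem hk hk') (K.inv_mem hk)) hw

/-- `O_2(Y)` normalizes `W_K`. -/
theorem R_norm_W {r w : G} (hr : r ∈ Cfsg.pCoreOf 2 Y) (hw : w ∈ Cfsg.wOf K) :
    r * w * r⁻¹ ∈ Cfsg.wOf K := by
  unfold Cfsg.wOf at hw ⊢
  exact comm_conj_mem (fun v hv => conj_mem_omegaCenterOf (c.R_norm_Q hr) hv)
    (fun k' hk' => conj_mem_of_mem_normalizer (c.R_norm_K hr) hk') hw

/-- An element of `K ∖ O_2(K)` has no fixed points on `W_K`. -/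
theorem fpf {d : G} (hd : d ∈ K) (hdQ : d ∉ Cfsg.pCoreOf 2 K) {w : G} (hw : w ∈ Cfsg.wOf K)
    (hfix : d * w * d⁻¹ = w) : w = 1 := by
  have hW4 := c.hW4
  have hW2 := c.hW2
  have hWU := c.W_le_U
  unfold Cfsg.wOf at hW4 hW2 hw hWU
  exact fp_free c.Q_le_K c.K_norm_Q c.hidx
    (fun v hv r hr => (mem_omegaCenterOf_iff.mp hv).2.1 r hr)
    (fun k hk v hv => conj_mem_omegaCenterOf (c.K_norm_Q hk) hv)
    hW4 hW2 hWU hd hdQ hw hfix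

theorem W_ne_bot : Cfsg.wOf K ≠ ⊥ := by
  intro h
  have h4 := c.hW4
  rw [h, Subgroup.card_bot] at h4
  omega

theorem W_comm {a b : G} (ha : a ∈ Cfsg.wOf K) (hb : b ∈ Cfsg.wOf K) : a * b = b * a :=
  (mem_omegaCenterOf_iff.mp (c.W_le_U hb)).2.1 a (c.W_le_Q ha)

/-- `O_2(Y)` centralizes `W_K`. -/
theorem R_cent_W [Finite G] {r w : G} (hr : r ∈ Cfsg.pCoreOf 2 Y) (hw : w ∈ Cfsg.wOf K) :
    r * w = w * r := by
  haveI : Fact (Nat.Prime 2) := ⟨Nat.prime_two⟩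
  obtain ⟨d, hd, hdQ, -⟩ := c.exists_d
  obtain ⟨w₀, hw₀, hw₀1, hw₀c⟩ :=
    Cfsg.Agent.Lib.Helper53.exists_mem_center_of_normal_subgroup c.R_pgroup
      (c.W_le_Q.trans c.Q_le_R)
      (Cfsg.Agent.Lib.Helper53.le_normalizer_of_conj_mem (fun r hr w hw => c.R_norm_W hr hw))
      c.W_ne_bot
  have hy : d * w₀ * d⁻¹ ∈ Cfsg.wOf K := c.K_norm_W hd hw₀
  have hyc : ∀ g ∈ Cfsg.pCoreOf 2 Y, g * (d * w₀ * d⁻¹) = (d * w₀ * d⁻¹) * g := by
    intro g hg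
    have hg' : d⁻¹ * g * d ∈ Cfsg.pCoreOf 2 Y :=
      conj_inv_mem_of_mem_normalizer (c.Y_norm_R (c.hKY hd)) hg
    have h := hw₀c _ hg'
    calc g * (d * w₀ * d⁻¹) = d * ((d⁻¹ * g * d) * w₀) * d⁻¹ := by group
      _ = d * (w₀ * (d⁻¹ * g * d)) * d⁻¹ := by rw [h]
      _ = d * w₀ * d⁻¹ * g := by group
  have hy1 : d * w₀ * d⁻¹ ≠ 1 := by
    intro h; apply hw₀1
    have e : w₀ = d⁻¹ * (d * w₀ * d⁻¹) * d := by group
    rw [e, h]; group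
  have hxy : w₀ ≠ d * w₀ * d⁻¹ := fun h => hw₀1 (c.fpf hd hdQ hw₀ h.symm)
  have hz : w₀ * (d * w₀ * d⁻¹) ∈ Cfsg.wOf K := Subgroup.mul_mem _ hw₀ hy
  have hz1 : w₀ * (d * w₀ * d⁻¹) ≠ 1 := by
    intro h
    apply hxy
    have h2 : w₀⁻¹ = d * w₀ * d⁻¹ := inv_eq_of_mul_eq_one_right h
    rw [← h2, inv_eq_self_of_sq (c.hW2 w₀ hw₀)]
  have hxz : w₀ ≠ w₀ * (d * w₀ * d⁻¹) := by
    intro h; apply hy1
    have e : w₀ * 1 = w₀ * (d * w₀ * d⁻¹) := by rw [mul_one]; exact h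
    exact (mul_left_cancel e).symm
  have hyz : d * w₀ * d⁻¹ ≠ w₀ * (d * w₀ * d⁻¹) := by
    intro h; apply hw₀1
    have e : 1 * (d * w₀ * d⁻¹) = w₀ * (d * w₀ * d⁻¹) := by rw [one_mul]; exact h
    exact (mul_right_cancel e).symm
  rcases four_enum c.hW4 hw₀ hy hz hw₀1 hy1 hz1 hxy hxz hyz w hw with h | h | h | h
  · rw [h]; simp
  · rw [h]; exact hw₀c r hr
  · rw [h]; exact hyc r hr
  · rw [h, ← mul_assoc, hw₀c r hr, mul_assoc, hyc r hr, ← mul_assoc]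

/-- `W_K ≤ Ω₁(Z(O_2(Y)))`. -/
theorem W_le_V [Finite G] : Cfsg.wOf K ≤ Cfsg.omegaCenterOf (Cfsg.pCoreOf 2 Y) := by
  intro w hw
  refine mem_omegaCenterOf_iff.mpr ⟨c.Q_le_R (c.W_le_Q hw), fun r hr => c.R_cent_W hr hw, ?_⟩
  rw [pow_two]; exact c.hW2 w hw

/-- `Y` normalizes `Ω₁(Z(O_2(Y)))`. -/
theorem Y_norm_V {y v : G} (hy : y ∈ Y) (hv : v ∈ Cfsg.omegaCenterOf (Cfsg.pCoreOf 2 Y)) :
    y * v * y⁻¹ ∈ Cfsg.omegaCenterOf (Cfsg.pCoreOf 2 Y) :=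
  conj_mem_omegaCenterOf (c.Y_norm_R hy) hv

/-- the cube of an element of `K` lies in `O_2(K)` -/
theorem pow_three_mem {k : G} (hk : k ∈ K) : k ^ 3 ∈ Cfsg.pCoreOf 2 K := by
  by_cases hkQ : k ∈ Cfsg.pCoreOf 2 K
  · exact Subgroup.pow_mem _ hkQ 3
  · exact (q3 c.Q_le_K c.K_norm_Q c.hidx hk hkQ).1

/-- `[V, d] ≤ W_K` for `d ∈ K`. -/
theorem comm_V_mem_W {d : G} (hd : d ∈ K) {v : G}
    (hv : v ∈ Cfsg.omegaCenterOf (Cfsg.pCoreOf 2 Y)) : d * v * d⁻¹ * v⁻¹ ∈ Cfsg.wOf K := by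
  have hd3 := c.pow_three_mem hd
  obtain ⟨hvR, hvc, hv2⟩ := mem_omegaCenterOf_iff.mp hv
  obtain ⟨b, hb⟩ : ∃ b, b = d * v * d⁻¹ := ⟨_, rfl⟩
  have hbV : b ∈ Cfsg.omegaCenterOf (Cfsg.pCoreOf 2 Y) := by
    rw [hb]; exact c.Y_norm_V (c.hKY hd) hv
  obtain ⟨e, he⟩ : ∃ e, e = d * b * d⁻¹ := ⟨_, rfl⟩
  have heV : e ∈ Cfsg.omegaCenterOf (Cfsg.pCoreOf 2 Y) := by
    rw [he]; exact c.Y_norm_V (c.hKY hd) hbV
  obtain ⟨hbR, hbc, hb2⟩ := mem_omegaCenterOf_iff.mp hbV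
  obtain ⟨heR, hec, he2⟩ := mem_omegaCenterOf_iff.mp heV
  have hdev : d * e * d⁻¹ = v := by
    have h0 : d ^ 3 = d * d * d := by rw [pow_succ, pow_two]
    have h1 : (d * d * d) * v = v * (d * d * d) := by
      rw [← h0]; exact hvc _ (c.Q_le_R hd3)
    calc d * e * d⁻¹ = (d * d * d) * v * (d * d * d)⁻¹ := by rw [he, hb]; group
      _ = v * (d * d * d) * (d * d * d)⁻¹ := by rw [h1]
      _ = v := by group
  rw [← hb]
  have hc0 : b * v⁻¹ ∈ Cfsg.omegaCenterOf (Cfsg.pCoreOf 2 K) := by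
    have hc0V : b * v⁻¹ ∈ Cfsg.omegaCenterOf (Cfsg.pCoreOf 2 Y) :=
      Subgroup.mul_mem _ hbV (Subgroup.inv_mem _ hv)
    obtain ⟨hc0R, hc0c, hc02⟩ := mem_omegaCenterOf_iff.mp hc0V
    refine mem_omegaCenterOf_iff.mpr ⟨?_, fun q hq => hc0c q (c.Q_le_R hq), hc02⟩
    apply c.inf_le_Q
    refine Subgroup.mem_inf.mpr ⟨?_, hc0R⟩
    have e1 : b * v⁻¹ = d * (v * d⁻¹ * v⁻¹) := by rw [hb]; group
    rw [e1]
    exact K.mul_mem hd (conj_mem_of_mem_normalizer (c.R_norm_K hvR) (K.inv_mem hd))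
  have hw' : d * (b * v⁻¹) * d⁻¹ * (b * v⁻¹)⁻¹ ∈ Cfsg.wOf K := by
    unfold Cfsg.wOf
    have h := Subgroup.commutator_mem_commutator hc0 hd
    have e1 : d * (b * v⁻¹) * d⁻¹ * (b * v⁻¹)⁻¹ = ⁅b * v⁻¹, d⁆⁻¹ := by
      rw [commutatorElement_def]; group
    rw [e1]; exact Subgroup.inv_mem _ h
  have hee : e * e = 1 := by rwa [pow_two] at he2
  have hvv : v * v = 1 := by rwa [pow_two] at hv2
  have hbe : b * e = e * b := hec b hbR
  have hvb : v * b = b * v := hbc v hvR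
  have hfin : d * (d * (b * v⁻¹) * d⁻¹ * (b * v⁻¹)⁻¹) * d⁻¹ = b * v⁻¹ := by
    have e1 : d * (d * (b * v⁻¹) * d⁻¹ * (b * v⁻¹)⁻¹) * d⁻¹ =
        (d * (d * b * d⁻¹) * d⁻¹) * (d * (d * v * d⁻¹) * d⁻¹)⁻¹ * (d * v * d⁻¹) *
          (d * b * d⁻¹)⁻¹ := by
      group
    rw [e1, ← hb, ← he, hdev, inv_eq_self_of_sq hee, inv_eq_self_of_sq hvv]
    calc v * e * b * e = v * (e * b) * e := by group
      _ = v * (b * e) * e := by rw [hbe]
      _ = v * b * (e * e) := by group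
      _ = v * b := by rw [hee, mul_one]
      _ = b * v := hvb
  rw [← hfin]
  exact c.K_norm_W hd hw'

/-- `W_K ≤ [W_K, d]` for `d ∈ K ∖ O_2(K)`. -/
theorem exists_comm_eq {d : G} (hd : d ∈ K) (hdQ : d ∉ Cfsg.pCoreOf 2 K) {w : G}
    (hw : w ∈ Cfsg.wOf K) : ∃ w' ∈ Cfsg.wOf K, d * w' * d⁻¹ * w'⁻¹ = w := by
  have hfin : Finite ↥(Cfsg.wOf K) := Nat.finite_of_card_ne_zero (by rw [c.hW4]; norm_num)
  let f : ↥(Cfsg.wOf K) → ↥(Cfsg.wOf K) := fun x =>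
    ⟨d * x * d⁻¹ * (x : G)⁻¹, Subgroup.mul_mem _ (c.K_norm_W hd x.2) (Subgroup.inv_mem _ x.2)⟩
  have hinj : Function.Injective f := by
    intro x y hxy
    have h1 : d * x * d⁻¹ * (x : G)⁻¹ = d * y * d⁻¹ * (y : G)⁻¹ := congrArg Subtype.val hxy
    have hX := c.K_norm_W hd x.2
    have hY := c.K_norm_W hd y.2
    have h2 : d * ((x : G) * (y : G)⁻¹) * d⁻¹ = (x : G) * (y : G)⁻¹ := by
      have hc1 : ((y : G)⁻¹ * x) * (d * y * d⁻¹)⁻¹ = (d * y * d⁻¹)⁻¹ * ((y : G)⁻¹ * x) :=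
        c.W_comm (Subgroup.mul_mem _ (Subgroup.inv_mem _ y.2) x.2) (Subgroup.inv_mem _ hY)
      have hc2 : (y : G)⁻¹ * x = x * (y : G)⁻¹ := c.W_comm (Subgroup.inv_mem _ y.2) x.2
      calc d * ((x : G) * (y : G)⁻¹) * d⁻¹
          = (d * x * d⁻¹ * (x : G)⁻¹) * (x * (d * y * d⁻¹)⁻¹) := by group
        _ = (d * y * d⁻¹ * (y : G)⁻¹) * (x * (d * y * d⁻¹)⁻¹) := by rw [h1]
        _ = (d * y * d⁻¹) * (((y : G)⁻¹ * x) * (d * y * d⁻¹)⁻¹) := by group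
        _ = (d * y * d⁻¹) * ((d * y * d⁻¹)⁻¹ * ((y : G)⁻¹ * x)) := by rw [hc1]
        _ = (y : G)⁻¹ * x := by group
        _ = x * (y : G)⁻¹ := hc2
    have h3 := c.fpf hd hdQ (Subgroup.mul_mem _ x.2 (Subgroup.inv_mem _ y.2)) h2
    exact Subtype.ext (mul_inv_eq_one.mp h3)
  obtain ⟨x, hx⟩ := (Finite.injective_iff_surjective.mp hinj) ⟨w, hw⟩
  exact ⟨x, x.2, congrArg Subtype.val hx⟩

end XCfg

/-! ### The conjugation action on a normalized subgroup -/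

/-- The conjugation action of `Y` on a subgroup `V` normalized by `Y`. -/
def conjHom (V Y : Subgroup G) (h : Y ≤ Subgroup.normalizer (V : Set G)) : ↥Y →* MulAut ↥V where
  toFun y :=
    { toFun := fun v => ⟨y * v * (y : G)⁻¹, conj_mem_of_mem_normalizer (h y.2) v.2⟩
      invFun := fun v => ⟨(y : G)⁻¹ * v * y, conj_inv_mem_of_mem_normalizer (h y.2) v.2⟩
      left_inv := fun v => by
        apply Subtype.ext
        show (y : G)⁻¹ * (y * v * (y : G)⁻¹) * y = v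
        group
      right_inv := fun v => by
        apply Subtype.ext
        show (y : G) * ((y : G)⁻¹ * v * y) * (y : G)⁻¹ = v
        group
      map_mul' := fun v w => by
        apply Subtype.ext
        show (y : G) * ((v : G) * w) * (y : G)⁻¹ = (y * v * (y : G)⁻¹) * (y * w * (y : G)⁻¹)
        group }
  map_one' := by
    apply MulEquiv.ext
    intro v
    apply Subtype.ext
    show ((1 : ↥Y) : G) * v * ((1 : ↥Y) : G)⁻¹ = v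
    simp
  map_mul' := fun y z => by
    apply MulEquiv.ext
    intro v
    apply Subtype.ext
    show ((y * z : ↥Y) : G) * v * ((y * z : ↥Y) : G)⁻¹ = y * (z * v * (z : G)⁻¹) * (y : G)⁻¹
    rw [Subgroup.coe_mul]
    group

theorem conjHom_apply (V Y : Subgroup G) (h : Y ≤ Subgroup.normalizer (V : Set G)) (y : ↥Y)
    (v : ↥V) : ((conjHom V Y h y v : ↥V) : G) = y * v * (y : G)⁻¹ := rfl

theorem commRange_conj {V : Type*} [CommGroup V] (α β : MulAut V) :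
    commRange (β * α * β⁻¹) = (commRange α).map β.toMonoidHom := by
  ext x
  rw [mem_commRange, Subgroup.mem_map]
  constructor
  · rintro ⟨v, rfl⟩
    refine ⟨α (β⁻¹ v) * (β⁻¹ v)⁻¹, mem_commRange.mpr ⟨_, rfl⟩, ?_⟩
    show β (α (β⁻¹ v) * (β⁻¹ v)⁻¹) = β (α (β⁻¹ v)) * v⁻¹
    rw [map_mul, map_inv]
    congr 2
    exact MulEquiv.apply_symm_apply β v
  · rintro ⟨y, hy, rfl⟩
    obtain ⟨v, rfl⟩ := mem_commRange.mp hy
    refine ⟨β v, ?_⟩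
    show β (α (β⁻¹ (β v))) * (β v)⁻¹ = β (α v * v⁻¹)
    rw [map_mul, map_inv]
    congr 3
    exact MulEquiv.symm_apply_apply β v

open scoped IsMulCommutative in
/-- Step 4 of Lemma X: for `a ∈ Y`, either `a` normalizes `W_K` or `a d a⁻¹` centralizes `W_K`. -/
theorem XCfg.normalizes_or_centralizes [Finite G] (hT : LemT.{u}) {K Y : Subgroup G}
    (c : XCfg K Y) {d : G} (hd : d ∈ K) (hdQ : d ∉ Cfsg.pCoreOf 2 K) {a : G} (ha : a ∈ Y) :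
    a ∈ Subgroup.normalizer ((Cfsg.wOf K : Subgroup G) : Set G) ∨
      ∀ w ∈ Cfsg.wOf K, (a * d * a⁻¹) * w = w * (a * d * a⁻¹) := by
  classical
  haveI : Fact (Nat.Prime 3) := ⟨by norm_num⟩
  obtain ⟨V, hVdef⟩ : ∃ V, V = Cfsg.omegaCenterOf (Cfsg.pCoreOf 2 Y) := ⟨_, rfl⟩
  have hVmem : ∀ {v : G}, v ∈ V ↔ v ∈ Cfsg.pCoreOf 2 Y ∧
      (∀ j ∈ Cfsg.pCoreOf 2 Y, j * v = v * j) ∧ v ^ 2 = 1 := by
    intro v; rw [hVdef]; exact mem_omegaCenterOf_iff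
  have hWV : Cfsg.wOf K ≤ V := by rw [hVdef]; exact c.W_le_V
  haveI hVc : IsMulCommutative ↥V :=
    ⟨⟨fun x y => Subtype.ext ((hVmem.mp y.2).2.1 x (hVmem.mp x.2).1)⟩⟩
  have hV2 : ∀ v : ↥V, v * v = 1 := fun v => Subtype.ext (by
    have h := (hVmem.mp v.2).2.2
    rw [pow_two] at h
    exact h)
  have hYV : Y ≤ Subgroup.normalizer (V : Set G) :=
    Cfsg.Agent.Lib.Helper53.le_normalizer_of_conj_mem (fun y hy v hv => by
      rw [hVdef] at hv ⊢; exact c.Y_norm_V hy hv)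
  let ρ := conjHom V Y hYV
  have hdY : d ∈ Y := c.hKY hd
  let W' : Subgroup ↥V := (Cfsg.wOf K).subgroupOf V
  have hcr : commRange (ρ ⟨d, hdY⟩) = W' := by
    ext v
    rw [mem_commRange]
    constructor
    · rintro ⟨u, rfl⟩
      show ((ρ ⟨d, hdY⟩ u * u⁻¹ : ↥V) : G) ∈ Cfsg.wOf K
      have e : ((ρ ⟨d, hdY⟩ u * u⁻¹ : ↥V) : G) = d * u * d⁻¹ * (u : G)⁻¹ := rfl
      rw [e]; exact c.comm_V_mem_W hd (by rw [← hVdef]; exact u.2)
    · intro hv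
      obtain ⟨w', hw', hw'e⟩ := c.exists_comm_eq hd hdQ (Subgroup.mem_subgroupOf.mp hv)
      exact ⟨⟨w', hWV hw'⟩, Subtype.ext hw'e⟩
  have hcardW' : Nat.card W' = 4 := by
    rw [← c.hW4]
    exact Nat.card_congr (Subgroup.subgroupOfEquivOfLe hWV).toEquiv
  have haY : a * d * a⁻¹ ∈ Y := Y.mul_mem (Y.mul_mem ha hdY) (Y.inv_mem ha)
  have hρa : ρ ⟨a * d * a⁻¹, haY⟩ = ρ ⟨a, ha⟩ * ρ ⟨d, hdY⟩ * (ρ ⟨a, ha⟩)⁻¹ := by
    rw [← map_inv, ← map_mul, ← map_mul]; rfl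
  have hcr2 : commRange (ρ ⟨a * d * a⁻¹, haY⟩) = W'.map (ρ ⟨a, ha⟩).toMonoidHom := by
    rw [hρa, commRange_conj, hcr]
  have hcard2 : Nat.card (commRange (ρ ⟨a * d * a⁻¹, haY⟩)) = 4 := by
    rw [hcr2, Subgroup.card_map_of_injective (ρ ⟨a, ha⟩).injective]; exact hcardW'
  have hρR : ∀ q : ↥Y, (q : G) ∈ Cfsg.pCoreOf 2 Y → ρ q = 1 := by
    intro q hq
    apply MulEquiv.ext
    intro v
    apply Subtype.ext
    show (q : G) * v * (q : G)⁻¹ = v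
    have h := (hVmem.mp v.2).2.1 q hq
    rw [h]; group
  let Kbar : Subgroup ↥ρ.range := (K.subgroupOf Y).map ρ.rangeRestrict
  have hKsn : Kbar.IsSubnormal := c.hsn.map ρ.rangeRestrict_surjective
  have hKp : IsPGroup 3 Kbar := by
    rintro ⟨x, hx⟩
    obtain ⟨k, hk, rfl⟩ := hx
    refine ⟨1, ?_⟩
    have h3 : ρ (k ^ 3) = 1 := hρR (k ^ 3) (c.Q_le_R (by
      rw [Subgroup.coe_pow]; exact c.pow_three_mem (Subgroup.mem_subgroupOf.mp hk)))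
    apply Subtype.ext
    apply Subtype.ext
    rw [pow_one]
    show (ρ k) ^ 3 = 1
    rw [← map_pow]; exact h3
  have hKle := Cfsg.Agent.Lib.Helper47.le_pCore_of_isSubnormal_of_isPGroup hKsn hKp
  haveI hPn : (Cfsg.pCore 3 ↥ρ.range).Normal := Subgroup.sSup_normal _ (fun _ h => h.1)
  have hdE : ρ.rangeRestrict ⟨d, hdY⟩ ∈ Cfsg.pCore 3 ↥ρ.range :=
    hKle ⟨⟨d, hdY⟩, Subgroup.mem_subgroupOf.mpr hd, rfl⟩
  have haE : ρ.rangeRestrict ⟨a * d * a⁻¹, haY⟩ ∈ Cfsg.pCore 3 ↥ρ.range := by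
    have h := hPn.conj_mem _ hdE (ρ.rangeRestrict ⟨a, ha⟩)
    have e : ρ.rangeRestrict ⟨a, ha⟩ * ρ.rangeRestrict ⟨d, hdY⟩ *
        (ρ.rangeRestrict ⟨a, ha⟩)⁻¹ = ρ.rangeRestrict ⟨a * d * a⁻¹, haY⟩ := by
      rw [← map_inv, ← map_mul, ← map_mul]; rfl
    rwa [e] at h
  haveI : Finite ↥ρ.range := Finite.of_surjective ρ.rangeRestrict ρ.rangeRestrict_surjective
  have hE : IsPGroup 3 ↥(Cfsg.pCore 3 ↥ρ.range) :=
    Cfsg.Agent.Lib.Helper47.pCore_isPGroup 3 ↥ρ.range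
  let φ : ↥(Cfsg.pCore 3 ↥ρ.range) →* MulAut ↥V :=
    ρ.range.subtype.comp (Cfsg.pCore 3 ↥ρ.range).subtype
  have hcard1 : Nat.card (commRange (φ ⟨_, hdE⟩)) = 4 := by
    show Nat.card (commRange (ρ ⟨d, hdY⟩)) = 4
    rw [hcr]; exact hcardW'
  have hcard2' : Nat.card (commRange (φ ⟨_, haE⟩)) = 4 := hcard2
  have key := @hT ↥V _ hV2 ↥(Cfsg.pCore 3 ↥ρ.range) _ _ hE φ ⟨_, hdE⟩ ⟨_, haE⟩ hcard1 hcard2'
  rcases key with h | h
  · left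
    have h' : W' = W'.map (ρ ⟨a, ha⟩).toMonoidHom := by
      have h1 : commRange (ρ ⟨d, hdY⟩) = commRange (ρ ⟨a * d * a⁻¹, haY⟩) := h
      rw [hcr, hcr2] at h1; exact h1
    rw [Subgroup.mem_normalizer_iff]
    intro x
    constructor
    · intro hx
      have h2 : (ρ ⟨a, ha⟩).toMonoidHom ⟨x, hWV hx⟩ ∈ W'.map (ρ ⟨a, ha⟩).toMonoidHom :=
        Subgroup.mem_map_of_mem _ (Subgroup.mem_subgroupOf.mpr hx)
      rw [← h'] at h2
      exact Subgroup.mem_subgroupOf.mp h2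
    · intro hx
      have hxV : a * x * a⁻¹ ∈ V := hWV hx
      have h2 : (⟨a * x * a⁻¹, hxV⟩ : ↥V) ∈ W' := Subgroup.mem_subgroupOf.mpr hx
      rw [h'] at h2
      obtain ⟨w', hw', hw'e⟩ := h2
      have h3 : a * (w' : G) * a⁻¹ = a * x * a⁻¹ := congrArg Subtype.val hw'e
      have h4 : (w' : G) = x := by
        have e1 : (w' : G) = a⁻¹ * (a * (w' : G) * a⁻¹) * a := by group
        rw [e1, h3]; group
      rw [← h4]; exact Subgroup.mem_subgroupOf.mp hw'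
  · right
    intro w hw
    have h1 := h ⟨w, hWV hw⟩ (by
      show (⟨w, hWV hw⟩ : ↥V) ∈ commRange (ρ ⟨d, hdY⟩)
      rw [hcr]; exact Subgroup.mem_subgroupOf.mpr hw)
    have h2 : (a * d * a⁻¹) * w * (a * d * a⁻¹)⁻¹ = w := congrArg Subtype.val h1
    calc (a * d * a⁻¹) * w = ((a * d * a⁻¹) * w * (a * d * a⁻¹)⁻¹) * (a * d * a⁻¹) := by group
      _ = w * (a * d * a⁻¹) := by rw [h2]

/-- LEMMA X.  `K` subnormal in `Y`, generated by elements of odd order, `|K : O_2(K)| = 3`, `W_K` a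
four-group.  Every elementary abelian 2-subgroup of `Y` of largest order normalizes `W_K`. -/
theorem XCfg.normalizes_wOf [Finite G] (hT : LemT.{u}) (hC : LemCount.{u}) {K Y : Subgroup G}
    (c : XCfg K Y) (A : Subgroup G) (hAY : A ≤ Y) (hA : Cfsg.IsElementaryAbelian 2 A)
    (hmax : ∀ B : Subgroup G, B ≤ Y → Cfsg.IsElementaryAbelian 2 B → Nat.card B ≤ Nat.card A) :
    A ≤ Subgroup.normalizer ((Cfsg.wOf K : Subgroup G) : Set G) := by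
  obtain ⟨d, hd, hdQ, -⟩ := c.exists_d
  have hVel : Cfsg.IsElementaryAbelian 2 (Cfsg.omegaCenterOf (Cfsg.pCoreOf 2 Y)) := by
    refine ⟨⟨⟨fun x y => Subtype.ext ?_⟩⟩, fun v hv => (mem_omegaCenterOf_iff.mp hv).2.2⟩
    exact (mem_omegaCenterOf_iff.mp y.2).2.1 x (mem_omegaCenterOf_iff.mp x.2).1
  have hVY : Cfsg.omegaCenterOf (Cfsg.pCoreOf 2 Y) ≤ Y :=
    fun v hv => c.R_le_Y (mem_omegaCenterOf_iff.mp hv).1
  refine hC A (Cfsg.omegaCenterOf (Cfsg.pCoreOf 2 Y)) (Cfsg.wOf K) d hA hVel ?_ c.W_le_V c.hW4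
    ?_ ?_ ?_
  · exact Cfsg.Agent.Lib.Helper53.le_normalizer_of_conj_mem
      (fun a ha v hv => c.Y_norm_V (hAY ha) hv)
  · intro w hw hdw
    apply c.fpf hd hdQ hw
    rw [hdw]; group
  · intro a ha hna
    exact (c.normalizes_or_centralizes hT hd hdQ (hAY ha)).resolve_left hna
  · intro B hB hBel
    exact hmax B (hB.trans (sup_le hAY hVY)) hBel

end Cfsg.Agent.Lib.Helper77.KS12
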