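import Mathlib
import Cfsg.Agent.Lib.Helper77.KS12.LemXGrp
import Cfsg.Agent.Lib.Helper85.KS12.JSylow

set_option autoImplicit false
set_option linter.style.haveILetI false

/-!
# KS12 / S2945: the core (helper77)

`J(T)` normalizes `W_K` when `K ≤ L`, `T` a Sylow 2-subgroup of `L`, `K` subnormal in `K ⊔ J(T)`,
`K` generated by odd-order elements, `|K : O_2(K)| = 3`, `W_K` a four-group (Lemma X applied to the
members of `𝒜(T)`); and S2945 from this and the statement of S2944.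
-/

namespace Cfsg.Agent.Lib.Helper77.KS12

open Cfsg.Agent.Lib.Helper11 (maxElemAbIn)

universe u
variable {G : Type u} [Group G]

/-- `J(T) ≤ N_G(W_K)`. -/
theorem thompson_le_normalizer_wOf [Finite G] (hTl : LemT.{u}) (hCl : LemCount.{u})
    {T L K : Subgroup G} (hTL : Cfsg.IsSylowTwoIn T L) (hKL : K ≤ L)
    (hKsn : (K.subgroupOf (K ⊔ Cfsg.thompsonSubgroupOf 2 T)).IsSubnormal)
    (hodd : Subgroup.closure {g : G | g ∈ K ∧ Odd (orderOf g)} = K)
    (hidx : (Cfsg.pCoreOf 2 K).relIndex K = 3)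
    (hW4 : Nat.card ↥(Cfsg.wOf K) = 4) (hW2 : ∀ w ∈ Cfsg.wOf K, w * w = 1) :
    Cfsg.thompsonSubgroupOf 2 T ≤ Subgroup.normalizer ((Cfsg.wOf K : Subgroup G) : Set G) := by
  haveI : Fact (Nat.Prime 2) := ⟨Nat.prime_two⟩
  have c : XCfg K (K ⊔ Cfsg.thompsonSubgroupOf 2 T) :=
    { hKY := le_sup_left, hodd := hodd, hidx := hidx, hW4 := hW4, hW2 := hW2, hsn := hKsn }
  obtain ⟨hTL1, hT2, hoddidx⟩ := hTL
  have hsyl : ¬ 2 ∣ T.relIndex L := by
    intro h2
    exact (Nat.not_even_iff_odd.mpr hoddidx) (even_iff_two_dvd.mpr h2)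
  have hJL : Cfsg.thompsonSubgroupOf 2 T ≤ L :=
    (Cfsg.Agent.Lib.Helper11.thompsonSubgroupOf_le 2 T).trans hTL1
  conv_lhs => rw [Cfsg.Agent.Lib.Helper11.thompsonSubgroupOf_eq]
  rw [sSup_le_iff]
  intro A hA
  refine c.normalizes_wOf hTl hCl A ?_ hA.2.1 ?_
  · exact (Cfsg.Agent.Lib.Helper11.le_thompsonSubgroupOf hA).trans le_sup_right
  · intro B hBY hBel
    have hBL : B ≤ L := hBY.trans (sup_le hKL hJL)
    obtain ⟨d, -, hdB⟩ := Cfsg.Agent.Lib.Helper16.BG.rel_sylow_conj L B T hBL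
      (Cfsg.Agent.Lib.Helper11.elemAb_isPGroup hBel) hT2 hsyl
    have hBT : B.map (MulAut.conj d).toMonoidHom ≤ T := by
      rintro _ ⟨v, hv, rfl⟩
      exact hdB v hv
    have h1 := hA.2.2 _ hBT (Cfsg.Agent.Lib.Helper11.elemAb_map _ hBel)
    rwa [Subgroup.card_map_of_injective (MulAut.conj d).injective] at h1

/-- S2945 from Lemma X and the statement of S2944. -/
theorem s2945_of [Finite G] (hTl : LemT.{u}) (hCl : LemCount.{u})
    (h44 : ∀ T : Subgroup G, IsPGroup 2 ↥T → T ≠ ⊥ → ∀ K ∈ Cfsg.jComponentsZero T,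
      Subgroup.normalizer (K : Set G) = Subgroup.normalizer (Cfsg.wOf K : Set G) ∧
      ∀ g : G, Cfsg.thompsonSubgroupOf 2 (T.map (MulAut.conj g).toMonoidHom) ≤
          Subgroup.normalizer (Cfsg.wOf K : Set G) →
        Cfsg.IsJComponent (T.map (MulAut.conj g).toMonoidHom) K)
    (T : Subgroup G) (hT : IsPGroup 2 ↥T) (hT1 : T ≠ ⊥) (L : Subgroup G)
    (hLT : L ∈ Cfsg.jOvergroups T) (K : Subgroup G) (hKL : K ≤ L)
    (hKsn : (K.subgroupOf (K ⊔ Cfsg.thompsonSubgroupOf 2 T)).IsSubnormal)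
    (g : G) (hKg : K ∈ Cfsg.jComponentsZero (T.map (MulAut.conj g).toMonoidHom)) :
    Cfsg.IsJComponent T K := by
  have hK' := hKg.1
  obtain ⟨hodd, -, hidx, -, hW4, hW2⟩ := hK'
  have hJN := thompson_le_normalizer_wOf hTl hCl hLT.1 hKL hKsn hodd hidx hW4 hW2
  have hTT : (T.map (MulAut.conj g).toMonoidHom).map (MulAut.conj g⁻¹).toMonoidHom = T := by
    ext x
    constructor
    · rintro ⟨_, ⟨t, ht, rfl⟩, rfl⟩
      have e : (MulAut.conj g⁻¹).toMonoidHom ((MulAut.conj g).toMonoidHom t) = t := by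
        show g⁻¹ * (g * t * g⁻¹) * g⁻¹⁻¹ = t
        group
      rw [e]; exact ht
    · intro hx
      refine ⟨g * x * g⁻¹, ⟨x, hx, rfl⟩, ?_⟩
      show g⁻¹ * (g * x * g⁻¹) * g⁻¹⁻¹ = x
      group
  have hT' : IsPGroup 2 ↥(T.map (MulAut.conj g).toMonoidHom) := hT.map _
  have hT'1 : T.map (MulAut.conj g).toMonoidHom ≠ ⊥ := by
    intro h
    exact hT1 ((Subgroup.map_eq_bot_iff_of_injective T (MulAut.conj g).injective).mp h)
  have h := (h44 _ hT' hT'1 K hKg).2 g⁻¹ (by rw [hTT]; exact hJN)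
  rwa [hTT] at h

end Cfsg.Agent.Lib.Helper77.KS12
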