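import Mathlib
import Cfsg.Agent.Lib.Helper77.KS12.S2945Core
import Cfsg.Agent.Lib.Helper77.KS12.LemCountV1
import Cfsg.Agent.Lib.Helper83.KS12.LemT

set_option autoImplicit false

/-!
# KS12 / S2945: Lemma X and the S2945 core without package hypotheses (helper77)

Uses helper83's `lemT` and `lemCount` (from helper86's `count`).
-/

namespace Cfsg.Agent.Lib.Helper77.KS12

universe u
variable {G : Type u} [Group G]

/-- LEMMA X (closed).  `K` subnormal in `Y`, generated by elements of odd order,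
`|K : O_2(K)| = 3`, `W_K` a four-group.  Every elementary abelian 2-subgroup of `Y` of largest
order normalizes `W_K`. -/
theorem XCfg.lemX [Finite G] {K Y : Subgroup G} (c : XCfg K Y) (A : Subgroup G) (hAY : A ≤ Y)
    (hA : Cfsg.IsElementaryAbelian 2 A)
    (hmax : ∀ B : Subgroup G, B ≤ Y → Cfsg.IsElementaryAbelian 2 B → Nat.card B ≤ Nat.card A) :
    A ≤ Subgroup.normalizer ((Cfsg.wOf K : Subgroup G) : Set G) :=
  c.normalizes_wOf Cfsg.Agent.Lib.Helper83.KS12.lemT lemCount A hAY hA hmax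

/-- `a ∈ Y` normalizes `W_K` or `a d a⁻¹` centralizes `W_K` (closed). -/
theorem XCfg.normalizes_or_centralizes' [Finite G] {K Y : Subgroup G} (c : XCfg K Y) {d : G}
    (hd : d ∈ K) (hdQ : d ∉ Cfsg.pCoreOf 2 K) {a : G} (ha : a ∈ Y) :
    a ∈ Subgroup.normalizer ((Cfsg.wOf K : Subgroup G) : Set G) ∨
      ∀ w ∈ Cfsg.wOf K, (a * d * a⁻¹) * w = w * (a * d * a⁻¹) :=
  c.normalizes_or_centralizes Cfsg.Agent.Lib.Helper83.KS12.lemT hd hdQ ha

/-- `J(T) ≤ N_G(W_K)` (closed): `T` a Sylow 2-subgroup of `L`, `K ≤ L` subnormal in `K ⊔ J(T)`,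
generated by odd-order elements, `|K : O_2(K)| = 3`, `W_K` a four-group. -/
theorem thompson_le_normalizer_wOf' [Finite G] {T L K : Subgroup G}
    (hTL : Cfsg.IsSylowTwoIn T L) (hKL : K ≤ L)
    (hKsn : (K.subgroupOf (K ⊔ Cfsg.thompsonSubgroupOf 2 T)).IsSubnormal)
    (hodd : Subgroup.closure {g : G | g ∈ K ∧ Odd (orderOf g)} = K)
    (hidx : (Cfsg.pCoreOf 2 K).relIndex K = 3)
    (hW4 : Nat.card ↥(Cfsg.wOf K) = 4) (hW2 : ∀ w ∈ Cfsg.wOf K, w * w = 1) :
    Cfsg.thompsonSubgroupOf 2 T ≤ Subgroup.normalizer ((Cfsg.wOf K : Subgroup G) : Set G) :=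
  thompson_le_normalizer_wOf Cfsg.Agent.Lib.Helper83.KS12.lemT lemCount hTL hKL hKsn hodd hidx
    hW4 hW2

/-- S2945 from the statement of S2944 (closed otherwise). -/
theorem s2945_of_s2944 [Finite G]
    (h44 : ∀ T : Subgroup G, IsPGroup 2 ↥T → T ≠ ⊥ → ∀ K ∈ Cfsg.jComponentsZero T,
      Subgroup.normalizer (K : Set G) = Subgroup.normalizer (Cfsg.wOf K : Set G) ∧
      ∀ g : G, Cfsg.thompsonSubgroupOf 2 (T.map (MulAut.conj g).toMonoidHom) ≤
          Subgroup.normalizer (Cfsg.wOf K : Set G) →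
        Cfsg.IsJComponent (T.map (MulAut.conj g).toMonoidHom) K)
    (T : Subgroup G) (hT : IsPGroup 2 ↥T) (hT1 : T ≠ ⊥) (L : Subgroup G)
    (hLT : L ∈ Cfsg.jOvergroups T) (K : Subgroup G) (hKL : K ≤ L)
    (hKsn : (K.subgroupOf (K ⊔ Cfsg.thompsonSubgroupOf 2 T)).IsSubnormal)
    (g : G) (hKg : K ∈ Cfsg.jComponentsZero (T.map (MulAut.conj g).toMonoidHom)) :
    Cfsg.IsJComponent T K :=
  s2945_of Cfsg.Agent.Lib.Helper83.KS12.lemT lemCount h44 T hT hT1 L hLT K hKL hKsn g hKg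

end Cfsg.Agent.Lib.Helper77.KS12
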