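import Mathlib
import Cfsg.Statements.S2951
import Cfsg.Statements.S2952
import Cfsg.Statements.S2953

set_option autoImplicit false

/-!
Interfaces (Prop-valued definitions) for the team proof of S2953 (Kurzweil-Stellmacher ch. 12):
two pure counting lemmas (`U53LemA`, `U53LemB`), the abstract "scenario (U) is impossible"
statement (`U53Abs`), and the KS12-level packages (`PkgGood`, `PkgPair`, `PkgConj`, `PkgNonU`,
`PkgU`).  (helper77)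
-/

namespace Cfsg.Agent.Lib.Helper77.KS12

open Cfsg

universe u

/-- Pure lemma (A): two commuting four-groups `W₁, W₂` with trivial intersection inside `Q ≤ P`,
swapped by an element `a` of an elementary abelian subgroup `A ≤ P` of maximal order, where
`A ⊓ Q` has index `≤ 2` in `A`, `Q` normalizes `W₁` and centralizes some `1 ≠ z₁ ∈ W₁`:
impossible. -/
def U53LemA.{v} : Prop :=
  ∀ {G : Type v} [Group G] [Finite G] (P Q W₁ W₂ A : Subgroup G) (a z₁ : G),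
    Q ≤ P → W₁ ≤ Q → W₂ ≤ Q → Nat.card ↥W₁ = 4 → (∀ w ∈ W₁, w * w = 1) →
    (∀ x ∈ W₁, ∀ y ∈ W₂, x * y = y * x) → W₁ ⊓ W₂ = ⊥ →
    A ≤ P → (∀ b ∈ A, b * b = 1) → (∀ b ∈ A, ∀ c ∈ A, b * c = c * b) →
    (∀ B : Subgroup G, B ≤ P → (∀ b ∈ B, b * b = 1) → (∀ b ∈ B, ∀ c ∈ B, b * c = c * b) →
      Nat.card ↥B ≤ Nat.card ↥A) →
    a ∈ A → W₁.map (MulAut.conj a).toMonoidHom = W₂ →
    (∀ b ∈ A, b ∈ Q ∨ a * b ∈ Q) →
    (∀ q ∈ Q, W₁.map (MulAut.conj q).toMonoidHom = W₁) →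
    z₁ ∈ W₁ → z₁ ≠ 1 → (∀ q ∈ Q, q * z₁ = z₁ * q) → False

/-- Pure lemma (B): `S` a finite 2-group (any subgroup here), `z` a central involution of `S`,
`{1, z, v, vz}` normal in `S`, `w ∈ S` an involution not commuting with `v`, `Q = C_S(w)`,
`Q ≤ T ≤ S` with `N_S(Q) ≤ T` and `T` normalizing `{1, z, w, wz}`, `k` normalizing `Q` and
permuting `z → w → wz`, and `x ∈ N_S(T) \ T`: impossible. -/
def U53LemB.{v} : Prop :=
  ∀ {G : Type v} [Group G] [Finite G] (S T Q : Subgroup G) (z v w k x : G),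
    z ∈ S → (∀ s ∈ S, s * z = z * s) → z * z = 1 → z ≠ 1 →
    v ∈ S → v * v = 1 → (∀ s ∈ S, s * v * s⁻¹ = v ∨ s * v * s⁻¹ = v * z) →
    w ∈ S → w * w = 1 → v * w ≠ w * v →
    (∀ g, g ∈ Q ↔ g ∈ S ∧ g * w = w * g) →
    Q ≤ T → T ≤ S → (∀ s ∈ S, (∀ q ∈ Q, s * q * s⁻¹ ∈ Q) → s ∈ T) →
    (∀ t ∈ T, t * w * t⁻¹ = w ∨ t * w * t⁻¹ = w * z) →
    (∀ q ∈ Q, k * q * k⁻¹ ∈ Q) → k * z * k⁻¹ = w → k * w * k⁻¹ = w * z →
    x ∈ S → (∀ t ∈ T, x * t * x⁻¹ ∈ T) → x ∉ T → False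

/-- The abstract configuration of scenario (U) is contradictory. -/
def U53Abs.{v} : Prop :=
  ∀ {G : Type v} [Group G] [Finite G] (S : Sylow 2 G) (T W Q A : Subgroup G) (z k z₁ z₂ : G),
    z ∈ (S : Subgroup G) → z * z = 1 → z ≠ 1 → (∀ s ∈ (S : Subgroup G), s * z = z * s) →
    Subgroup.centralizer ({z} : Set G) ≤ Subgroup.normalizer ((S : Subgroup G) : Set G) →
    W ≤ (S : Subgroup G) → Nat.card ↥W = 4 → (∀ w ∈ W, w * w = 1) → z ∈ W →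
    Subgroup.normalizer ((S : Subgroup G) : Set G) ≤ Subgroup.normalizer (W : Set G) →
    (∀ u ∈ W, u ≠ 1 → ∃ l ∈ Subgroup.normalizer (W : Set G), l * z * l⁻¹ = u) →
    T ≤ (S : Subgroup G) → T ≠ (S : Subgroup G) →
    k ^ 3 ∈ T → k ∉ Subgroup.normalizer (W : Set G) →
    z₁ = k * z * k⁻¹ → z₂ = k * z₁ * k⁻¹ → z * z₁ = z₁ * z →
    (∀ t ∈ T, t * z₁ * t⁻¹ = z₁ ∨ t * z₁ * t⁻¹ = z₂) →
    (∀ g, g ∈ Q ↔ g ∈ (S : Subgroup G) ∧ g * z₁ = z₁ * g ∧ g * z₂ = z₂ * g) →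
    (∀ s ∈ (S : Subgroup G), (∀ q ∈ Q, s * q * s⁻¹ ∈ Q) → s ∈ T) →
    A ≤ T → (∀ a ∈ A, a * a = 1) → (∀ a ∈ A, ∀ b ∈ A, a * b = b * a) →
    (∀ B : Subgroup G, B ≤ T → (∀ b ∈ B, b * b = 1) → (∀ a ∈ B, ∀ b ∈ B, a * b = b * a) →
      Nat.card ↥B ≤ Nat.card ↥A) →
    (∃ a ∈ A, a * z₁ ≠ z₁ * a) → False

/-- The standing hypotheses of the KS12 statements S2948-S2954. -/
def Std53 (G : Type u) [Group G] : Prop :=
  Cfsg.IsCharacteristicTwoType G ∧ (∀ N : Subgroup G, Cfsg.IsTwoLocal N → Group.IsSolvable ↥N) ∧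
    (∀ S : Sylow 2 G, Subgroup.centralizer (Cfsg.omegaCenterOf (S : Subgroup G) : Set G) ≤
      Subgroup.normalizer ((S : Subgroup G) : Set G)) ∧ Cfsg.pCore 2 G = ⊥

/-- The statement of S2951 (after the standing hypotheses). -/
def H51 (G : Type u) [Group G] : Prop :=
  ∀ (S : Sylow 2 G) (M : Subgroup G), Cfsg.IsTwoLocal M →
    Subgroup.normalizer (Cfsg.thompsonSubgroupOf 2 (S : Subgroup G) : Set G) ≤ M →
    ∀ T : Subgroup G, T ∈ Cfsg.maxStraddlingTwoSubgroups M → T ≤ (S : Subgroup G) →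
    ∀ K : Subgroup G, K ∈ Cfsg.jComponentsOutside M T →
    ∀ L : Subgroup G, Cfsg.IsMaximalTwoLocal L → K ⊔ Cfsg.thompsonSubgroupOf 2 T ≤ L →
    ∀ Z Z₀ : Subgroup G, Z = Cfsg.omegaCenterOf (S : Subgroup G) →
      Z₀ = Cfsg.omegaCenterOf (Cfsg.thompsonSubgroupOf 2 T) →
    Z₀ ⊓ Cfsg.wOf K ≠ ⊥ ∧
      ((Z = Z₀ ∧ Nat.card ↥Z₀ = 2) ∨ (Z = Z₀ ∧ Nat.card ↥Z₀ = 4 ∧ T = (S : Subgroup G)) ∨
        (Cfsg.omegaCenterOf T = Z₀ ∧ Nat.card ↥Z₀ = 4 ∧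
          (L ⊓ Subgroup.centralizer (Z₀ : Set G)).relIndex (Subgroup.normalizer (Z₀ : Set G)) = 2))

/-- The statement of S2952 (after the standing hypotheses). -/
def H52 (G : Type u) [Group G] : Prop :=
  ∀ (S : Sylow 2 G) (M : Subgroup G), Cfsg.IsTwoLocal M →
    Subgroup.normalizer (Cfsg.thompsonSubgroupOf 2 (S : Subgroup G) : Set G) ≤ M →
    ∀ T : Subgroup G, T ∈ Cfsg.maxStraddlingTwoSubgroups M →
    ∀ K : Subgroup G, K ∈ Cfsg.jComponentsOutside M T → (K.subgroupOf (K ⊔ T)).Normal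

/-- The conclusion of S2953 for `T`. -/
def Concl53 {G : Type u} [Group G] (T : Subgroup G) : Prop :=
  ∃ K₁ K₂ : Subgroup G, K₁ ≠ K₂ ∧ Cfsg.IsJComponent T K₁ ∧ Cfsg.IsJComponent T K₂ ∧
    Cfsg.pCoreOf 2 ((K₁ ⊔ T) ⊔ (K₂ ⊔ T)) = ⊥ ∧
    ∀ P ∈ [K₁ ⊔ T, K₂ ⊔ T],
      Subgroup.centralizer (Cfsg.pCoreOf 2 P : Set G) ≤ Cfsg.pCoreOf 2 P ∧ Cfsg.IsSylowTwoIn T P ∧
      (Cfsg.pCoreOf 2 P).relIndex P = 6 ∧ ¬ ⁅P, P⁆ ≤ Cfsg.pCoreOf 2 P ∧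
      ⁅Cfsg.omegaCenterOf T, P⁆ ≠ ⊥ ∧
      ∃ L : Subgroup G, Cfsg.IsMaximalTwoLocal L ∧ P ≤ L ∧ Cfsg.IsSylowTwoIn T L ∧
        ∀ L' : Subgroup G, Cfsg.IsMaximalTwoLocal L' → P ≤ L' → L' = L

/-- `K` is a `J(T)`-component, `L` the unique maximal 2-local subgroup containing `P = ⟨K, T⟩`,
`T` is a Sylow 2-subgroup of `L`, and `P` has the five properties required by S2953. -/
def Good53 {G : Type u} [Group G] (T K L : Subgroup G) : Prop :=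
  Cfsg.IsJComponent T K ∧ Cfsg.IsMaximalTwoLocal L ∧ K ⊔ T ≤ L ∧ Cfsg.IsSylowTwoIn T L ∧
    (∀ L' : Subgroup G, Cfsg.IsMaximalTwoLocal L' → K ⊔ T ≤ L' → L' = L) ∧
    Subgroup.centralizer (Cfsg.pCoreOf 2 (K ⊔ T) : Set G) ≤ Cfsg.pCoreOf 2 (K ⊔ T) ∧
    Cfsg.IsSylowTwoIn T (K ⊔ T) ∧ (Cfsg.pCoreOf 2 (K ⊔ T)).relIndex (K ⊔ T) = 6 ∧
    ¬ ⁅K ⊔ T, K ⊔ T⁆ ≤ Cfsg.pCoreOf 2 (K ⊔ T) ∧ ⁅Cfsg.omegaCenterOf T, K ⊔ T⁆ ≠ ⊥

/-- Package GOOD: a member of `jComponentsOutside M T` with its maximal 2-local is `Good53`. -/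
def PkgGood (G : Type u) [Group G] : Prop :=
  Std53 G → H52 G →
  ∀ (S : Sylow 2 G) (M : Subgroup G), Cfsg.IsTwoLocal M →
    Subgroup.normalizer (Cfsg.thompsonSubgroupOf 2 (S : Subgroup G) : Set G) ≤ M →
    ∀ T : Subgroup G, T ∈ Cfsg.maxStraddlingTwoSubgroups M →
    ∀ K : Subgroup G, K ∈ Cfsg.jComponentsOutside M T →
    ∀ L : Subgroup G, Cfsg.IsMaximalTwoLocal L → K ⊔ Cfsg.thompsonSubgroupOf 2 T ≤ L →
    Good53 T K L

/-- Package PAIR: two good pairs with different maximal 2-locals give the conclusion of S2953. -/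
def PkgPair (G : Type u) [Group G] : Prop :=
  ∀ T K₁ K₂ L₁ L₂ : Subgroup G, IsPGroup 2 ↥T → Good53 T K₁ L₁ → Good53 T K₂ L₂ → L₁ ≠ L₂ →
    Concl53 T

/-- Package CONJ: if some `n ∈ N_M(T)` is not in `L`, then `K` and `K^n` do it. -/
def PkgConj (G : Type u) [Group G] : Prop :=
  Std53 G → H52 G → PkgGood G → PkgPair G →
  ∀ (S : Sylow 2 G) (M : Subgroup G), Cfsg.IsTwoLocal M →
    Subgroup.normalizer (Cfsg.thompsonSubgroupOf 2 (S : Subgroup G) : Set G) ≤ M →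
    ∀ T : Subgroup G, T ∈ Cfsg.maxStraddlingTwoSubgroups M →
    ∀ K : Subgroup G, K ∈ Cfsg.jComponentsOutside M T →
    ∀ L : Subgroup G, Cfsg.IsMaximalTwoLocal L → K ⊔ Cfsg.thompsonSubgroupOf 2 T ≤ L →
    ∀ n : G, n ∈ M → T.map (MulAut.conj n).toMonoidHom = T → n ∉ L → Concl53 T

/-- Package NONU: `T = S`, `N_G(S) ≤ L`, and some 2-local subgroup containing `S` is not in `L`. -/
def PkgNonU (G : Type u) [Group G] : Prop :=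
  Std53 G → H51 G → H52 G → PkgGood G → PkgPair G →
  ∀ (S : Sylow 2 G) (M : Subgroup G), Cfsg.IsTwoLocal M →
    Subgroup.normalizer (Cfsg.thompsonSubgroupOf 2 (S : Subgroup G) : Set G) ≤ M →
    (S : Subgroup G) ∈ Cfsg.maxStraddlingTwoSubgroups M →
    ∀ K : Subgroup G, K ∈ Cfsg.jComponentsOutside M (S : Subgroup G) →
    ∀ L : Subgroup G, Cfsg.IsMaximalTwoLocal L →
    K ⊔ Cfsg.thompsonSubgroupOf 2 (S : Subgroup G) ≤ L →
    Subgroup.normalizer ((S : Subgroup G) : Set G) ≤ L →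
    ∀ N : Subgroup G, Cfsg.IsTwoLocal N → (S : Subgroup G) ≤ N → ¬ N ≤ L →
    Concl53 (S : Subgroup G)

/-- Package U: scenario (U) (`T = S` and every 2-local subgroup containing `S` lies in `L`) is
impossible. -/
def PkgU (G : Type u) [Group G] : Prop :=
  Std53 G → H51 G → H52 G → U53Abs.{u} →
  ∀ (S : Sylow 2 G) (M : Subgroup G), Cfsg.IsTwoLocal M →
    Subgroup.normalizer (Cfsg.thompsonSubgroupOf 2 (S : Subgroup G) : Set G) ≤ M →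
    (S : Subgroup G) ∈ Cfsg.maxStraddlingTwoSubgroups M →
    ∀ K : Subgroup G, K ∈ Cfsg.jComponentsOutside M (S : Subgroup G) →
    ∀ L : Subgroup G, Cfsg.IsMaximalTwoLocal L →
    K ⊔ Cfsg.thompsonSubgroupOf 2 (S : Subgroup G) ≤ L →
    (∀ N : Subgroup G, Cfsg.IsTwoLocal N → (S : Subgroup G) ≤ N → N ≤ L) → False

end Cfsg.Agent.Lib.Helper77.KS12
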